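/-
³D₄(q) is perfect.
-/
import Cfsg.Agent.Lib.Tw.PerfT

set_option autoImplicit false
set_option synthInstance.maxHeartbeats 400000
set_option synthInstance.maxSize 1024

namespace CfsgLib.Chev

open Cfsg.Lie Cfsg.Lie.ChevalleyDatum CfsgLib.BN

section D4

variable {K : Type*} [Field K] {q : ℕ} (φ : K ≃+* K) (hφ : ∀ t, φ t = t ^ q) (hφ3 : ∀ t, φ (φ (φ t)) = t)

local notation "Xr" => TD4.good.xG (F := K)

include hφ in
lemma d4_triple_mem {a b c : ℕ} (h : (a, b, c) ∈ [(d4p1, d4p3, d4p4), (d4m1, d4m3, d4m4)]) (t : K) : Xr a t * Xr b (φ t) * Xr c (φ (φ t)) ∈ twistedD4 K q := by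
  have e2 : ∀ t : K, t ^ (q ^ 2) = φ (φ t) := fun t => by
    rw [hφ, hφ, ← pow_mul, pow_two]
  have h5 : TD4.good.wordG [(a, t), (b, t ^ q), (c, t ^ (q ^ 2))] ∈ twistedD4 K q :=
    TD4.good.wordG_mem_gen (Or.inr ⟨t, (a, b, c), h, rfl⟩)
  simp only [Good.wordG, List.map_cons, List.map_nil, List.prod_cons, List.prod_nil, mul_one] at h5
  rw [e2, ← hφ, ← mul_assoc] at h5
  exact h5

include hφ in
lemma d4_fix_mem {r : ℕ} (hr : r ∈ [d4p2, d4m2]) {t : K} (ht : φ t = t) : Xr r t ∈ twistedD4 K q := by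
  have h5 : TD4.good.wordG [(r, t)] ∈ twistedD4 K q :=
    TD4.good.wordG_mem_gen (Or.inl ⟨t, by rw [← hφ, ht], r, hr, rfl⟩)
  simpa [Good.wordG] using h5

/-- The step for the orbit of three nodes. -/
lemma d4_triple_step {a b c : ℕ} (hab : (a, b, c) ∈ [(d4p1, d4p3, d4p4), (d4m1, d4m3, d4m4)]) (hq : ∀ (t : K), t ^ q = φ t)
    (hc1 : ∀ s t : K, Xr b s * Xr a t = Xr a t * Xr b s) (hc2 : ∀ s t : K, Xr c s * Xr a t = Xr a t * Xr c s) (hc3 : ∀ s t : K, Xr c s * Xr b t = Xr b t * Xr c s)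
    {h : GL chevD4.Idx K} (hh : h ∈ twistedD4 K q) {d : Fin chevD4.nroots → K} (hd : IsMono TD4.good h 1 d)
    (ha : a < chevD4.nroots) (hb : b < chevD4.nroots) (hcc : c < chevD4.nroots) (hd2 : d ⟨b, hb⟩ = φ (d ⟨a, ha⟩)) (hd3 : d ⟨c, hcc⟩ = φ (φ (d ⟨a, ha⟩))) (hd1 : d ⟨a, ha⟩ ≠ 1) (t : K) :
    Xr a t * Xr b (φ t) * Xr c (φ (φ t)) ∈ derT (twistedD4 K q) := by
  have hφ' : ∀ t, φ t = t ^ q := fun t => (hq t).symm
  refine add_step (Y := fun t => Xr a t * Xr b (φ t) * Xr c (φ (φ t))) (c := d ⟨a, ha⟩) ?_ (fun t => d4_triple_mem φ hφ' hab t) hh hd1 ?_ t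
  · intro s t
    simp only [map_add, ← TD4.good.xG_add]
    calc Xr a s * Xr a t * (Xr b (φ s) * Xr b (φ t)) * (Xr c (φ (φ s)) * Xr c (φ (φ t)))
        = Xr a s * (Xr a t * Xr b (φ s)) * Xr b (φ t) * (Xr c (φ (φ s)) * Xr c (φ (φ t))) := by group
      _ = Xr a s * (Xr b (φ s) * Xr a t) * Xr b (φ t) * (Xr c (φ (φ s)) * Xr c (φ (φ t))) := by rw [hc1]
      _ = Xr a s * Xr b (φ s) * (Xr a t * Xr b (φ t) * Xr c (φ (φ s))) * Xr c (φ (φ t)) := by group
      _ = Xr a s * Xr b (φ s) * (Xr c (φ (φ s)) * (Xr a t * Xr b (φ t))) * Xr c (φ (φ t)) := by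
          have e7 : Xr a t * Xr b (φ t) * Xr c (φ (φ s)) = Xr c (φ (φ s)) * (Xr a t * Xr b (φ t)) := by
            rw [mul_assoc, ← hc3, ← mul_assoc, ← hc2, mul_assoc]
          rw [e7]
      _ = _ := by group
  · intro t
    have e1 := hd.conj ⟨a, ha⟩ t
    have e2 := hd.conj ⟨b, hb⟩ (φ t)
    have e4 := hd.conj ⟨c, hcc⟩ (φ (φ t))
    simp only [Equiv.Perm.coe_one, id_eq] at e1 e2 e4
    have e3 : h * (Xr a t * Xr b (φ t) * Xr c (φ (φ t))) * h⁻¹ = (h * Xr a t * h⁻¹) * (h * Xr b (φ t) * h⁻¹) * (h * Xr c (φ (φ t)) * h⁻¹) := by group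
    rw [e3, e1, e2, e4, hd2, hd3]
    simp only [map_mul]

/-- The commutator relation producing a root element of a fixed root. -/
lemma d4_comm22 (s s1 s2 t t1 t2 : K) : (Xr 21 t * Xr 17 t1 * Xr 20 t2) * (Xr 18 s * Xr 13 s1 * Xr 12 s2) =
    (Xr 18 s * Xr 13 s1 * Xr 12 s2) * (Xr 21 t * Xr 17 t1 * Xr 20 t2) * Xr 22 (s * t1 - s1 * t2 - s2 * t) := by
  have h1 : Xr 21 t * Xr 12 s2 = Xr 12 s2 * Xr 21 t * Xr 22 (-s2 * t) := by
    have h := TD4.good.comm_G (F := K) (r := 12) (s := 21) (by decide +kernel) (by decide +kernel) (by decide +kernel) (by decide +kernel) s2 t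
    have e : chevD4.commTerms 12 21 = [(22, 1, 1, 1)] := by decide +kernel
    unfold ChevalleyDatum.commWord at h
    rw [e] at h
    simp only [List.map_cons, List.map_nil, Good.wordG, List.prod_cons, List.prod_nil, mul_one] at h
    rw [h]
    simp
  have h2 : Xr 17 t1 * Xr 18 s = Xr 18 s * Xr 17 t1 * Xr 22 (s * t1) := by
    have h := TD4.good.comm_G (F := K) (r := 18) (s := 17) (by decide +kernel) (by decide +kernel) (by decide +kernel) (by decide +kernel) s t1
    have e : chevD4.commTerms 18 17 = [(22, -1, 1, 1)] := by decide +kernel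
    unfold ChevalleyDatum.commWord at h
    rw [e] at h
    simp only [List.map_cons, List.map_nil, Good.wordG, List.prod_cons, List.prod_nil, mul_one] at h
    rw [h]
    simp
  have h3 : Xr 20 t2 * Xr 13 s1 = Xr 13 s1 * Xr 20 t2 * Xr 22 (-s1 * t2) := by
    have h := TD4.good.comm_G (F := K) (r := 13) (s := 20) (by decide +kernel) (by decide +kernel) (by decide +kernel) (by decide +kernel) s1 t2
    have e : chevD4.commTerms 13 20 = [(22, 1, 1, 1)] := by decide +kernel
    unfold ChevalleyDatum.commWord at h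
    rw [e] at h
    simp only [List.map_cons, List.map_nil, Good.wordG, List.prod_cons, List.prod_nil, mul_one] at h
    rw [h]
    simp
  have cc : ∀ {r s' : ℕ}, r < chevD4.nroots → s' < chevD4.nroots → s' ≠ r → s' ≠ chevD4.neg r → chevD4.commTerms r s' = [] → ∀ a b : K, Xr s' a * Xr r b = Xr r b * Xr s' a :=
    fun hr hs h1 h2 hc a b => TD4.good.x_comm hr hs h1 h2 hc b a
  -- commuting pairs
  have c2118 : ∀ a b : K, Xr 21 a * Xr 18 b = Xr 18 b * Xr 21 a := cc (by decide +kernel) (by decide +kernel) (by decide +kernel) (by decide +kernel) (by decide +kernel)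
  have c2113 : ∀ a b : K, Xr 21 a * Xr 13 b = Xr 13 b * Xr 21 a := cc (by decide +kernel) (by decide +kernel) (by decide +kernel) (by decide +kernel) (by decide +kernel)
  have c1713 : ∀ a b : K, Xr 17 a * Xr 13 b = Xr 13 b * Xr 17 a := cc (by decide +kernel) (by decide +kernel) (by decide +kernel) (by decide +kernel) (by decide +kernel)
  have c1712 : ∀ a b : K, Xr 17 a * Xr 12 b = Xr 12 b * Xr 17 a := cc (by decide +kernel) (by decide +kernel) (by decide +kernel) (by decide +kernel) (by decide +kernel)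
  have c2018 : ∀ a b : K, Xr 20 a * Xr 18 b = Xr 18 b * Xr 20 a := cc (by decide +kernel) (by decide +kernel) (by decide +kernel) (by decide +kernel) (by decide +kernel)
  have c2012 : ∀ a b : K, Xr 20 a * Xr 12 b = Xr 12 b * Xr 20 a := cc (by decide +kernel) (by decide +kernel) (by decide +kernel) (by decide +kernel) (by decide +kernel)
  have z17 : ∀ a b : K, Xr 22 a * Xr 17 b = Xr 17 b * Xr 22 a := cc (by decide +kernel) (by decide +kernel) (by decide +kernel) (by decide +kernel) (by decide +kernel)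
  have z20 : ∀ a b : K, Xr 22 a * Xr 20 b = Xr 20 b * Xr 22 a := cc (by decide +kernel) (by decide +kernel) (by decide +kernel) (by decide +kernel) (by decide +kernel)
  have z13 : ∀ a b : K, Xr 22 a * Xr 13 b = Xr 13 b * Xr 22 a := cc (by decide +kernel) (by decide +kernel) (by decide +kernel) (by decide +kernel) (by decide +kernel)
  have z12 : ∀ a b : K, Xr 22 a * Xr 12 b = Xr 12 b * Xr 22 a := cc (by decide +kernel) (by decide +kernel) (by decide +kernel) (by decide +kernel) (by decide +kernel)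
  have e0 : Xr 22 (s * t1 - s1 * t2 - s2 * t) = Xr 22 (-s2 * t) * Xr 22 (s * t1) * Xr 22 (-s1 * t2) := by
    rw [TD4.good.xG_add, TD4.good.xG_add]
    congr 1
    ring
  -- move the pieces one by one
  have step1 : Xr 21 t * (Xr 18 s * Xr 13 s1 * Xr 12 s2) = (Xr 18 s * Xr 13 s1 * Xr 12 s2) * Xr 21 t * Xr 22 (-s2 * t) := by
    calc Xr 21 t * (Xr 18 s * Xr 13 s1 * Xr 12 s2) = (Xr 21 t * Xr 18 s) * Xr 13 s1 * Xr 12 s2 := by group
      _ = Xr 18 s * (Xr 21 t * Xr 13 s1) * Xr 12 s2 := by rw [c2118]; group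
      _ = Xr 18 s * Xr 13 s1 * (Xr 21 t * Xr 12 s2) := by rw [c2113]; group
      _ = _ := by rw [h1]; group
  have step2 : Xr 17 t1 * (Xr 18 s * Xr 13 s1 * Xr 12 s2) = (Xr 18 s * Xr 13 s1 * Xr 12 s2) * Xr 17 t1 * Xr 22 (s * t1) := by
    calc Xr 17 t1 * (Xr 18 s * Xr 13 s1 * Xr 12 s2) = (Xr 17 t1 * Xr 18 s) * Xr 13 s1 * Xr 12 s2 := by group
      _ = Xr 18 s * Xr 17 t1 * (Xr 22 (s * t1) * Xr 13 s1) * Xr 12 s2 := by rw [h2]; group
      _ = Xr 18 s * (Xr 17 t1 * Xr 13 s1) * (Xr 22 (s * t1) * Xr 12 s2) := by rw [z13]; group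
      _ = Xr 18 s * Xr 13 s1 * (Xr 17 t1 * Xr 12 s2) * Xr 22 (s * t1) := by rw [c1713, z12]; group
      _ = _ := by rw [c1712]; group
  have step3 : Xr 20 t2 * (Xr 18 s * Xr 13 s1 * Xr 12 s2) = (Xr 18 s * Xr 13 s1 * Xr 12 s2) * Xr 20 t2 * Xr 22 (-s1 * t2) := by
    calc Xr 20 t2 * (Xr 18 s * Xr 13 s1 * Xr 12 s2) = (Xr 20 t2 * Xr 18 s) * Xr 13 s1 * Xr 12 s2 := by group
      _ = Xr 18 s * (Xr 20 t2 * Xr 13 s1) * Xr 12 s2 := by rw [c2018]; group
      _ = Xr 18 s * Xr 13 s1 * Xr 20 t2 * (Xr 22 (-s1 * t2) * Xr 12 s2) := by rw [h3]; group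
      _ = Xr 18 s * Xr 13 s1 * (Xr 20 t2 * Xr 12 s2) * Xr 22 (-s1 * t2) := by rw [z12]; group
      _ = _ := by rw [c2012]; group
  set S := Xr 18 s * Xr 13 s1 * Xr 12 s2 with hS
  rw [e0]
  calc Xr 21 t * Xr 17 t1 * Xr 20 t2 * S = Xr 21 t * Xr 17 t1 * (Xr 20 t2 * S) := by group
    _ = Xr 21 t * Xr 17 t1 * (S * Xr 20 t2 * Xr 22 (-s1 * t2)) := by rw [step3]
    _ = Xr 21 t * (Xr 17 t1 * S) * Xr 20 t2 * Xr 22 (-s1 * t2) := by group
    _ = Xr 21 t * (S * Xr 17 t1 * Xr 22 (s * t1)) * Xr 20 t2 * Xr 22 (-s1 * t2) := by rw [step2]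
    _ = (Xr 21 t * S) * Xr 17 t1 * (Xr 22 (s * t1) * Xr 20 t2) * Xr 22 (-s1 * t2) := by group
    _ = (S * Xr 21 t * Xr 22 (-s2 * t)) * Xr 17 t1 * (Xr 20 t2 * Xr 22 (s * t1)) * Xr 22 (-s1 * t2) := by rw [step1, z20]
    _ = S * Xr 21 t * (Xr 22 (-s2 * t) * Xr 17 t1) * (Xr 20 t2 * Xr 22 (s * t1)) * Xr 22 (-s1 * t2) := by group
    _ = S * Xr 21 t * (Xr 17 t1 * Xr 22 (-s2 * t)) * (Xr 20 t2 * Xr 22 (s * t1)) * Xr 22 (-s1 * t2) := by rw [z17]
    _ = S * Xr 21 t * Xr 17 t1 * (Xr 22 (-s2 * t) * Xr 20 t2) * Xr 22 (s * t1) * Xr 22 (-s1 * t2) := by group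
    _ = S * Xr 21 t * Xr 17 t1 * (Xr 20 t2 * Xr 22 (-s2 * t)) * Xr 22 (s * t1) * Xr 22 (-s1 * t2) := by rw [z20]
    _ = _ := by group

variable [Fintype K]

include hφ hφ3 in
/-- The trace is surjective. -/
lemma d4_trace (hq : 1 < q) (hK : Fintype.card K = q ^ 3) (v : K) (hv : φ v = v) : ∃ s : K, s + φ s + φ (φ s) = v := by
  classical
  by_contra hcon
  push Not at hcon
  have h0 : ∀ s : K, s + φ s + φ (φ s) = 0 := by
    by_contra h1
    push Not at h1
    obtain ⟨s, hs⟩ := h1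
    have e1 : φ (s + φ s + φ (φ s)) = s + φ s + φ (φ s) := by
      rw [map_add, map_add, hφ3]
      ring
    apply hcon (s * (v * (s + φ s + φ (φ s))⁻¹))
    have e2 : s * (v * (s + φ s + φ (φ s))⁻¹) + φ (s * (v * (s + φ s + φ (φ s))⁻¹)) + φ (φ (s * (v * (s + φ s + φ (φ s))⁻¹))) =
        (s + φ s + φ (φ s)) * (v * (s + φ s + φ (φ s))⁻¹) := by
      simp only [map_mul, map_inv₀, hv, e1]
      ring
    rw [e2]
    field_simp
  -- a polynomial with too many roots
  have hq2 : q < q ^ 2 := by nlinarith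
  have hq3 : q ^ 2 < q ^ 3 := by
    have : 0 < q ^ 2 := by positivity
    nlinarith
  set P : Polynomial K := Polynomial.X ^ (q ^ 2) + Polynomial.X ^ q + Polynomial.X with hP
  have hdeg : P.natDegree ≤ q ^ 2 := by
    refine (Polynomial.natDegree_add_le _ _).trans (max_le ((Polynomial.natDegree_add_le _ _).trans (max_le ?_ ?_)) ?_)
    · simp
    · simp only [Polynomial.natDegree_X_pow]
      omega
    · simp only [Polynomial.natDegree_X]
      omega
  have hz : P = 0 := by
    refine Polynomial.eq_zero_of_natDegree_lt_card_of_eval_eq_zero P (f := fun x : K => x) (fun _ _ h => h) ?_ ?_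
    · intro x
      have := h0 x
      simp only [hφ, ← pow_mul] at this
      simp only [hP, Polynomial.eval_add, Polynomial.eval_pow, Polynomial.eval_X]
      rw [pow_two, ← this]
      ring
    · rw [hK]
      omega
  have hc := congrArg (fun p => Polynomial.coeff p (q ^ 2)) hz
  simp only [hP, Polynomial.coeff_add, Polynomial.coeff_X_pow, Polynomial.coeff_X, Polynomial.coeff_zero] at hc
  rw [if_pos trivial, if_neg (by omega), if_neg (by omega)] at hc
  simp at hc

include hφ hφ3 in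
/-- `³D₄(q)` is perfect. -/
theorem d4_perfect (hq : 1 < q) (hK : Fintype.card K = q ^ 3) : commutator ↥(twistedD4 K q) = ⊤ := by
  classical
  obtain ⟨Dt, e', hJ⟩ := d4_td φ hφ hφ3
  have hq' : ∀ t : K, t ^ q = φ t := fun t => (hφ t).symm
  set CT := derT (twistedD4 K q) with hCT
  have hM : ∀ g ∈ twistedD4 K q, ∀ x ∈ CT, g * x * g⁻¹ ∈ CT := fun g hg x hx => conj_mem_derT hg hx
  have hf : ∀ r, (tD4 φ).f r = fun t => ((d4ε r : ℤ) : K) * φ t := fun r => rfl
  have hstep : ∀ (j : Dt.ι) (L : List ℕ) (r r' : ℕ) (hr : r < chevD4.nroots) (hr' : r' < chevD4.nroots), Dt.J j = {i | i ∈ L} →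
      (∀ i ∈ L, i < chevD4.rank ∧ i ∈ L) → (∀ r < chevD4.nroots, chevD4.nroots / 2 ≤ r → ((actW TD4.cert L r).1 < chevD4.nroots / 2 ↔ ∀ k < chevD4.rank, k ∉ L → TD4.cert.coef r k = 0)) →
      (actW TD4.cert L r).1 = r' → d4π r = r → d4ε r = 1 → d4π r' = r' → d4ε r' = 1 →
      (∀ t, φ t = t → Xr r t ∈ CT) → ∀ u, φ u = u → Xr r' u ∈ CT := by
    intro j L r r' hr hr' hj hL1 hL2 h0 h1 h2 h3 h4 hx u hu
    refine Dt.root_step TD4.extra (φ := (φ : K →+* K)) hM (Dt.w_T TD4.extra TD4.braid j) (Dt.w_mono TD4.extra TD4.braid j) hr hr' ?_ h1 ?_ h3 ?_ hx u hu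
    · rw [Dt.τw_val_eq TD4.extra TD4.braid j hj hL1 hL2 r hr, h0]
    · rw [hf, h2]
      simp
    · intro t
      rw [hf, h4]
      simp
  have hfind : ∀ i : Fin 2, ∃ j, Dt.J j = {k | k ∈ d4J i} := fun i => ⟨e'.symm i, by rw [hJ]; simp⟩
  obtain ⟨j1, hj1⟩ := hfind 0
  obtain ⟨j3, hj3⟩ := hfind 1
  have hj1' : Dt.J j1 = {k | k ∈ [1]} := hj1
  have hj3' : Dt.J j3 = {k | k ∈ [0, 2, 3]} := hj3
  -- the fixed root `22`
  have h22 : ∀ v, φ v = v → Xr 22 v ∈ CT := by
    intro v hv
    obtain ⟨s, hs⟩ := d4_trace φ hφ hφ3 hq hK (-v) (by rw [map_neg, hv])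
    have hA : Xr 18 s * Xr 13 (φ s) * Xr 12 (φ (φ s)) ∈ twistedD4 K q := d4_triple_mem φ hφ (a := d4p1) (b := d4p3) (c := d4p4) (by decide) s
    have hB : Xr 21 1 * Xr 17 (-1) * Xr 20 1 ∈ twistedD4 K q := by
      have h1 : Xr 21 1 * Xr 17 (-1) * Xr 20 1 ∈ chevD4.posUnipotent K ⊓ ((tD4 φ).base TD4.extra TD4.braid).Fx := by
        refine Subgroup.mem_inf.2 ⟨mul_mem (mul_mem (TD4.good.posUnipotent_mem ((TD4.extra.posIff _ (by decide +kernel)).2 (by decide +kernel)) _) (TD4.good.posUnipotent_mem ((TD4.extra.posIff _ (by decide +kernel)).2 (by decide +kernel)) _)) (TD4.good.posUnipotent_mem ((TD4.extra.posIff _ (by decide +kernel)).2 (by decide +kernel)) _), ?_⟩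
        refine ⟨mul_mem (mul_mem (TD4.good.mem_group (by decide +kernel) _) (TD4.good.mem_group (by decide +kernel) _)) (TD4.good.mem_group (by decide +kernel) _), ?_⟩
        show (tD4 φ).s _ = _
        rw [(tD4 φ).s_mul (mul_mem (TD4.good.mem_group (by decide +kernel) _) (TD4.good.mem_group (by decide +kernel) _)) (TD4.good.mem_group (by decide +kernel) _),
          (tD4 φ).s_mul (TD4.good.mem_group (by decide +kernel) _) (TD4.good.mem_group (by decide +kernel) _), tD4_s φ (by decide +kernel), tD4_s φ (by decide +kernel), tD4_s φ (by decide +kernel)]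
        have s1 : d4π 21 = 17 := by decide +kernel
        have s2 : d4ε 21 = -1 := by decide +kernel
        have s3 : d4π 17 = 20 := by decide +kernel
        have s4 : d4ε 17 = -1 := by decide +kernel
        have s5 : d4π 20 = 21 := by decide +kernel
        have s6 : d4ε 20 = 1 := by decide +kernel
        rw [s1, s2, s3, s4, s5, s6]
        have c1 : ∀ a b : K, Xr 17 a * Xr 21 b = Xr 21 b * Xr 17 a := fun a b =>
          TD4.good.x_comm (by decide +kernel) (by decide +kernel) (by decide +kernel) (by decide +kernel) (by decide +kernel) b a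
        have c2 : ∀ a b : K, Xr 20 a * Xr 21 b = Xr 21 b * Xr 20 a := fun a b =>
          TD4.good.x_comm (by decide +kernel) (by decide +kernel) (by decide +kernel) (by decide +kernel) (by decide +kernel) b a
        have c3 : ∀ a b : K, Xr 20 a * Xr 17 b = Xr 17 b * Xr 20 a := fun a b =>
          TD4.good.x_comm (by decide +kernel) (by decide +kernel) (by decide +kernel) (by decide +kernel) (by decide +kernel) b a
        simp only [Int.reduceNeg, Int.cast_neg, Int.cast_one, map_one, map_neg, mul_one, neg_mul, one_mul, neg_neg]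
        rw [mul_assoc, c2, ← mul_assoc, c1]
      rw [← Dt.U_inf_T TD4.extra TD4.braid] at h1
      exact (Subgroup.mem_inf.1 h1).2
    have e := d4_comm22 (K := K) s (φ s) (φ (φ s)) 1 (-1) 1
    have e1 : s * -1 - φ s * 1 - φ (φ s) * 1 = v := by
      have : v = -(s + φ s + φ (φ s)) := by
        rw [hs, neg_neg]
      rw [this]
      ring
    rw [e1] at e
    set P := Xr 21 1 * Xr 17 (-1) * Xr 20 1 with hP
    set S := Xr 18 s * Xr 13 (φ s) * Xr 12 (φ (φ s)) with hS
    have h2 : Xr 22 v = P⁻¹ * S⁻¹ * P⁻¹⁻¹ * S⁻¹⁻¹ := by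
      rw [inv_inv, inv_inv, mul_assoc _ P, mul_assoc, e]
      group
    rw [h2]
    exact comm_mem_derT (inv_mem hB) (inv_mem hA)
  have h14 : ∀ v, φ v = v → Xr d4p2 v ∈ CT :=
    hstep j3 [0, 2, 3] 22 d4p2 (by decide +kernel) (by decide +kernel) hj3' (by decide +kernel) (by decide +kernel) (by decide +kernel) (by decide +kernel) (by decide +kernel) (by decide +kernel) (by decide +kernel) h22
  have h9 : ∀ v, φ v = v → Xr d4m2 v ∈ CT :=
    hstep j1 [1] d4p2 d4m2 (by decide +kernel) (by decide +kernel) hj1' (by decide +kernel) (by decide +kernel) (by decide +kernel) (by decide +kernel) (by decide +kernel) (by decide +kernel) (by decide +kernel) h14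
  -- an element of the field which is not a square root of one
  obtain ⟨x, hx0, hx1⟩ : ∃ x : K, x ≠ 0 ∧ x ^ 2 ≠ 1 := by
    have hc : ({0, 1, -1} : Finset K).card < Fintype.card K := by
      refine lt_of_le_of_lt (Finset.card_le_three) ?_
      rw [hK]
      have : 2 ^ 3 ≤ q ^ 3 := Nat.pow_le_pow_left hq 3
      omega
    obtain ⟨x, hx⟩ : ∃ x, x ∉ ({0, 1, -1} : Finset K) := by
      by_contra h
      push Not at h
      have : (Finset.univ : Finset K) ⊆ {0, 1, -1} := fun x _ => h x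
      have := Finset.card_le_card this
      rw [Finset.card_univ] at this
      omega
    simp only [Finset.mem_insert, Finset.mem_singleton, not_or] at hx
    refine ⟨x, hx.1, fun e => ?_⟩
    have e2 : (x - 1) * (x + 1) = 0 := by
      linear_combination e
    rcases mul_eq_zero.1 e2 with h | h
    · exact hx.2.1 (sub_eq_zero.1 h)
    · exact hx.2.2 (eq_neg_of_add_eq_zero_left h)
  have hH := d4H_mono φ (c := 1) (b := x) one_ne_zero hx0
  have hHm : d4H φ 1 x ∈ twistedD4 K q := d4H_mem φ hφ (by simp) hx0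
  have hval : ∀ (r : ℕ) (e0 e1 e2 e3 : ℤ), cartanA chevD4 d4p2 r = e0 → cartanA chevD4 d4p1 r = e1 → cartanA chevD4 d4p3 r = e2 → cartanA chevD4 d4p4 r = e3 →
      (1 : K) ^ cartanA chevD4 d4p2 r * (x ^ cartanA chevD4 d4p1 r * (φ x) ^ cartanA chevD4 d4p3 r * (φ (φ x)) ^ cartanA chevD4 d4p4 r) = x ^ e1 * (φ x) ^ e2 * (φ (φ x)) ^ e3 := by
    intro r e0 e1 e2 e3 h0 h1 h2 h3
    rw [h0, h1, h2, h3]
    simp
  have pp : ∀ t : K, Xr d4p1 t * Xr d4p3 (φ t) * Xr d4p4 (φ (φ t)) ∈ CT := by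
    refine d4_triple_step φ (a := d4p1) (b := d4p3) (c := d4p4) (by decide) hq' ?_ ?_ ?_ hHm hH (by decide +kernel) (by decide +kernel) (by decide +kernel) ?_ ?_ ?_
    · intro s t
      exact TD4.good.x_comm (by decide +kernel) (by decide +kernel) (by decide +kernel) (by decide +kernel) (by decide +kernel) t s
    · intro s t
      exact TD4.good.x_comm (by decide +kernel) (by decide +kernel) (by decide +kernel) (by decide +kernel) (by decide +kernel) t s
    · intro s t
      exact TD4.good.x_comm (by decide +kernel) (by decide +kernel) (by decide +kernel) (by decide +kernel) (by decide +kernel) t s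
    · dsimp only
      rw [hval _ (-1) 0 2 0 (by decide +kernel) (by decide +kernel) (by decide +kernel) (by decide +kernel), hval _ (-1) 2 0 0 (by decide +kernel) (by decide +kernel) (by decide +kernel) (by decide +kernel)]
      simp
    · dsimp only
      rw [hval _ (-1) 0 0 2 (by decide +kernel) (by decide +kernel) (by decide +kernel) (by decide +kernel), hval _ (-1) 2 0 0 (by decide +kernel) (by decide +kernel) (by decide +kernel) (by decide +kernel)]
      simp
    · dsimp only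
      rw [hval _ (-1) 2 0 0 (by decide +kernel) (by decide +kernel) (by decide +kernel) (by decide +kernel)]
      simpa using hx1
  have pm : ∀ t : K, Xr d4m1 t * Xr d4m3 (φ t) * Xr d4m4 (φ (φ t)) ∈ CT := by
    refine d4_triple_step φ (a := d4m1) (b := d4m3) (c := d4m4) (by decide) hq' ?_ ?_ ?_ hHm hH (by decide +kernel) (by decide +kernel) (by decide +kernel) ?_ ?_ ?_
    · intro s t
      exact TD4.good.x_comm (by decide +kernel) (by decide +kernel) (by decide +kernel) (by decide +kernel) (by decide +kernel) t s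
    · intro s t
      exact TD4.good.x_comm (by decide +kernel) (by decide +kernel) (by decide +kernel) (by decide +kernel) (by decide +kernel) t s
    · intro s t
      exact TD4.good.x_comm (by decide +kernel) (by decide +kernel) (by decide +kernel) (by decide +kernel) (by decide +kernel) t s
    · dsimp only
      rw [hval _ 1 0 (-2) 0 (by decide +kernel) (by decide +kernel) (by decide +kernel) (by decide +kernel), hval _ 1 (-2) 0 0 (by decide +kernel) (by decide +kernel) (by decide +kernel) (by decide +kernel)]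
      simp
    · dsimp only
      rw [hval _ 1 0 0 (-2) (by decide +kernel) (by decide +kernel) (by decide +kernel) (by decide +kernel), hval _ 1 (-2) 0 0 (by decide +kernel) (by decide +kernel) (by decide +kernel) (by decide +kernel)]
      simp
    · dsimp only
      rw [hval _ 1 (-2) 0 0 (by decide +kernel) (by decide +kernel) (by decide +kernel) (by decide +kernel)]
      intro e
      apply hx1
      simpa using e
  apply perfect_of_le
  apply TD4.good.gen_le
  rintro w (⟨t, ht, r, hr, rfl⟩ | ⟨t, rs, hrs, rfl⟩)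
  · have ht' : φ t = t := by rw [hφ, ht]
    have e : TD4.good.wordG [(r, t)] = Xr r t := by simp [Good.wordG]
    rw [e]
    simp only [List.mem_cons, List.not_mem_nil, or_false] at hr
    rcases hr with rfl | rfl
    · exact h14 t ht'
    · exact h9 t ht'
  · have e : ∀ a b c : ℕ, TD4.good.wordG [(a, t), (b, t ^ q), (c, t ^ (q ^ 2))] = Xr a t * Xr b (φ t) * Xr c (φ (φ t)) := by
      intro a b c
      have e2 : ∀ t : K, t ^ (q ^ 2) = φ (φ t) := fun t => by
        rw [hφ, hφ, ← pow_mul, pow_two]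
      rw [e2]
      simp [Good.wordG, mul_assoc, hq']
    simp only [List.mem_cons, List.not_mem_nil, or_false] at hrs
    rcases hrs with rfl | rfl
    · rw [e]
      exact pp t
    · rw [e]
      exact pm t

end D4

end CfsgLib.Chev
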