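/-
²E₆(q) is perfect.
-/
import Cfsg.Agent.Lib.Tw.PerfT

set_option autoImplicit false
set_option synthInstance.maxHeartbeats 400000
set_option synthInstance.maxSize 1024

namespace CfsgLib.Chev

open Cfsg.Lie Cfsg.Lie.ChevalleyDatum CfsgLib.BN

section E6

variable {K : Type*} [Field K] {q : ℕ} (φ : K ≃+* K) (hφ : ∀ t, φ t = t ^ q) (hφ2 : ∀ t, φ (φ t) = t)

local notation "Xr" => TE6.good.xG (F := K)

include hφ in
lemma e6_pair_mem {a b : ℕ} (h : (a, b) ∈ [(e6p1, e6p6), (e6m1, e6m6), (e6p3, e6p5), (e6m3, e6m5)]) (t : K) : Xr a t * Xr b (φ t) ∈ twistedE6 K q := by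
  have h5 : TE6.good.wordG [(a, t), (b, t ^ q)] ∈ twistedE6 K q :=
    TE6.good.wordG_mem_gen (Or.inr ⟨t, (a, b), h, rfl⟩)
  rw [hφ]
  simpa [Good.wordG] using h5

include hφ in
lemma e6_fix_mem {r : ℕ} (hr : r ∈ [e6p2, e6m2, e6p4, e6m4]) {t : K} (ht : φ t = t) : Xr r t ∈ twistedE6 K q := by
  have h5 : TE6.good.wordG [(r, t)] ∈ twistedE6 K q :=
    TE6.good.wordG_mem_gen (Or.inl ⟨t, by rw [← hφ, ht], r, hr, rfl⟩)
  simpa [Good.wordG] using h5

/-- The step for an orbit of two nodes. -/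
lemma e6_pair_step {a b : ℕ} (hab : (a, b) ∈ [(e6p1, e6p6), (e6m1, e6m6), (e6p3, e6p5), (e6m3, e6m5)]) (hq : ∀ (t : K), t ^ q = φ t)
    (hc : ∀ s t : K, Xr b s * Xr a t = Xr a t * Xr b s) {h : GL chevE6.Idx K} (hh : h ∈ twistedE6 K q) {d : Fin chevE6.nroots → K} (hd : IsMono TE6.good h 1 d)
    (ha : a < chevE6.nroots) (hb : b < chevE6.nroots) (hd2 : d ⟨b, hb⟩ = φ (d ⟨a, ha⟩)) (hd1 : d ⟨a, ha⟩ ≠ 1) (t : K) :
    Xr a t * Xr b (φ t) ∈ derT (twistedE6 K q) := by
  have hφ' : ∀ t, φ t = t ^ q := fun t => (hq t).symm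
  refine add_step (Y := fun t => Xr a t * Xr b (φ t)) (c := d ⟨a, ha⟩) ?_ (fun t => e6_pair_mem φ hφ' hab t) hh hd1 ?_ t
  · intro s t
    simp only [map_add, ← TE6.good.xG_add]
    rw [mul_assoc, mul_assoc, ← mul_assoc (Xr b (φ s)), hc, mul_assoc]
  · intro t
    have e1 := hd.conj ⟨a, ha⟩ t
    have e2 := hd.conj ⟨b, hb⟩ (φ t)
    simp only [Equiv.Perm.coe_one, id_eq] at e1 e2
    have e3 : h * (Xr a t * Xr b (φ t)) * h⁻¹ = (h * Xr a t * h⁻¹) * (h * Xr b (φ t) * h⁻¹) := by group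
    rw [e3, e1, e2, hd2, map_mul]

lemma e6G_neg (t0 t1 t2 t3 t4 t5 : K) {r : ℕ} (hr : r < chevE6.nroots) : e6G t0 t1 t2 t3 t4 t5 (chevE6.neg r) = (e6G t0 t1 t2 t3 t4 t5 r)⁻¹ := by
  have c0 : ∀ r < chevE6.nroots, cartanA chevE6 e6p1 (chevE6.neg r) = -cartanA chevE6 e6p1 r := by decide +kernel
  have c1 : ∀ r < chevE6.nroots, cartanA chevE6 e6p2 (chevE6.neg r) = -cartanA chevE6 e6p2 r := by decide +kernel
  have c2 : ∀ r < chevE6.nroots, cartanA chevE6 e6p3 (chevE6.neg r) = -cartanA chevE6 e6p3 r := by decide +kernel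
  have c3 : ∀ r < chevE6.nroots, cartanA chevE6 e6p4 (chevE6.neg r) = -cartanA chevE6 e6p4 r := by decide +kernel
  have c4 : ∀ r < chevE6.nroots, cartanA chevE6 e6p5 (chevE6.neg r) = -cartanA chevE6 e6p5 r := by decide +kernel
  have c5 : ∀ r < chevE6.nroots, cartanA chevE6 e6p6 (chevE6.neg r) = -cartanA chevE6 e6p6 r := by decide +kernel
  unfold e6G
  rw [c0 r hr, c1 r hr, c2 r hr, c3 r hr, c4 r hr, c5 r hr]
  simp only [zpow_neg, mul_inv]

/-- The commutator relation producing a root element of a fixed root. -/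
lemma e6_comm44 (s t u v : K) : (Xr 40 t * Xr 43 u) * (Xr 37 s * Xr 42 v) = (Xr 37 s * Xr 42 v) * (Xr 40 t * Xr 43 u) * Xr 44 (v * t - s * u) := by
  have h1 : Xr 43 u * Xr 37 s = Xr 37 s * Xr 43 u * Xr 44 (-s * u) := by
    have h := TE6.good.comm_G (F := K) (r := 37) (s := 43) (by decide +kernel) (by decide +kernel) (by decide +kernel) (by decide +kernel) s u
    have e : chevE6.commTerms 37 43 = [(44, 1, 1, 1)] := by decide +kernel
    unfold ChevalleyDatum.commWord at h
    rw [e] at h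
    simp only [List.map_cons, List.map_nil, Good.wordG, List.prod_cons, List.prod_nil, mul_one] at h
    rw [h]
    simp
  have h2 : Xr 40 t * Xr 42 v = Xr 42 v * Xr 40 t * Xr 44 (v * t) := by
    have h := TE6.good.comm_G (F := K) (r := 42) (s := 40) (by decide +kernel) (by decide +kernel) (by decide +kernel) (by decide +kernel) v t
    have e : chevE6.commTerms 42 40 = [(44, -1, 1, 1)] := by decide +kernel
    unfold ChevalleyDatum.commWord at h
    rw [e] at h
    simp only [List.map_cons, List.map_nil, Good.wordG, List.prod_cons, List.prod_nil, mul_one] at h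
    rw [h]
    simp
  have c1 : ∀ a b : K, Xr 40 a * Xr 37 b = Xr 37 b * Xr 40 a := fun a b =>
    TE6.good.x_comm (by decide +kernel) (by decide +kernel) (by decide +kernel) (by decide +kernel) (by decide +kernel) b a
  have c2 : ∀ a b : K, Xr 43 a * Xr 42 b = Xr 42 b * Xr 43 a := fun a b =>
    TE6.good.x_comm (by decide +kernel) (by decide +kernel) (by decide +kernel) (by decide +kernel) (by decide +kernel) b a
  have c3 : ∀ a b : K, Xr 44 a * Xr 40 b = Xr 40 b * Xr 44 a := fun a b =>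
    TE6.good.x_comm (by decide +kernel) (by decide +kernel) (by decide +kernel) (by decide +kernel) (by decide +kernel) b a
  have c4 : ∀ a b : K, Xr 44 a * Xr 43 b = Xr 43 b * Xr 44 a := fun a b =>
    TE6.good.x_comm (by decide +kernel) (by decide +kernel) (by decide +kernel) (by decide +kernel) (by decide +kernel) b a
  have c5 : ∀ a b : K, Xr 44 a * Xr 42 b = Xr 42 b * Xr 44 a := fun a b =>
    TE6.good.x_comm (by decide +kernel) (by decide +kernel) (by decide +kernel) (by decide +kernel) (by decide +kernel) b a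
  have e0 : Xr 44 (v * t - s * u) = Xr 44 (v * t) * Xr 44 (-s * u) := by
    rw [TE6.good.xG_add]
    congr 1
    ring
  calc (Xr 40 t * Xr 43 u) * (Xr 37 s * Xr 42 v)
      = Xr 40 t * (Xr 43 u * Xr 37 s) * Xr 42 v := by group
    _ = Xr 40 t * (Xr 37 s * Xr 43 u * Xr 44 (-s * u)) * Xr 42 v := by rw [h1]
    _ = (Xr 40 t * Xr 37 s) * Xr 43 u * (Xr 44 (-s * u) * Xr 42 v) := by group
    _ = (Xr 37 s * Xr 40 t) * Xr 43 u * (Xr 42 v * Xr 44 (-s * u)) := by rw [c1, c5]
    _ = Xr 37 s * Xr 40 t * (Xr 43 u * Xr 42 v) * Xr 44 (-s * u) := by group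
    _ = Xr 37 s * Xr 40 t * (Xr 42 v * Xr 43 u) * Xr 44 (-s * u) := by rw [c2]
    _ = Xr 37 s * (Xr 40 t * Xr 42 v) * Xr 43 u * Xr 44 (-s * u) := by group
    _ = Xr 37 s * (Xr 42 v * Xr 40 t * Xr 44 (v * t)) * Xr 43 u * Xr 44 (-s * u) := by rw [h2]
    _ = Xr 37 s * Xr 42 v * Xr 40 t * (Xr 44 (v * t) * Xr 43 u) * Xr 44 (-s * u) := by group
    _ = Xr 37 s * Xr 42 v * Xr 40 t * (Xr 43 u * Xr 44 (v * t)) * Xr 44 (-s * u) := by rw [c4]
    _ = (Xr 37 s * Xr 42 v) * (Xr 40 t * Xr 43 u) * (Xr 44 (v * t) * Xr 44 (-s * u)) := by group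
    _ = _ := by rw [← e0]

variable [Fintype K]

include hφ hφ2 in
/-- The trace is not zero. -/
lemma e6_trace (hq : 1 < q) (hK : Fintype.card K = q ^ 2) (v : K) (hv : φ v = v) : ∃ s : K, s + φ s = v := by
  by_contra hcon
  push Not at hcon
  have h0 : ∀ s : K, s + φ s = 0 := by
    by_contra h1
    push Not at h1
    obtain ⟨s, hs⟩ := h1
    have e1 : φ (s + φ s) = s + φ s := by
      rw [map_add, hφ2, add_comm]
    apply hcon (s * (v * (s + φ s)⁻¹))
    rw [map_mul, map_mul, map_inv₀, hv, e1]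
    field_simp
  have h2 : (2 : K) = 0 := by
    have := h0 1
    rw [map_one] at this
    rw [← this]
    norm_num
  have h3 : ∀ s : K, s ^ q = s := by
    intro s
    rw [← hφ]
    have e2 := h0 s
    have e3 : s + s = 0 := by
      rw [← two_mul, h2, zero_mul]
    exact add_left_cancel (e2.trans e3.symm)
  have h4 := Tw.card_fixed_pow hq hK
  have h5 : Nat.card {t : K // t ^ q = t} = Nat.card K := Nat.card_congr ⟨fun x => x.1, fun x => ⟨x, h3 x⟩, fun _ => rfl, fun _ => rfl⟩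
  rw [h4, Nat.card_eq_fintype_card, hK] at h5
  have : q < q ^ 2 := by nlinarith
  omega

include hφ hφ2 in
/-- `²E₆(q)` is perfect. -/
theorem e6_perfect (hq : 1 < q) (hK : Fintype.card K = q ^ 2) : commutator ↥(twistedE6 K q) = ⊤ := by
  classical
  obtain ⟨Dt, e', hJ⟩ := e6_td φ hφ hφ2
  have hq' : ∀ t : K, t ^ q = φ t := fun t => (hφ t).symm
  set CT := derT (twistedE6 K q) with hCT
  have hM : ∀ g ∈ twistedE6 K q, ∀ x ∈ CT, g * x * g⁻¹ ∈ CT := fun g hg x hx => conj_mem_derT hg hx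
  have hf : ∀ r, (tE6 φ).f r = fun t => ((spE6.σ r : ℤ) : K) * φ t := fun r => rfl
  have hstep : ∀ (j : Dt.ι) (L : List ℕ) (r r' : ℕ) (hr : r < chevE6.nroots) (hr' : r' < chevE6.nroots), Dt.J j = {i | i ∈ L} →
      (∀ i ∈ L, i < chevE6.rank ∧ i ∈ L) → (∀ r < chevE6.nroots, chevE6.nroots / 2 ≤ r → ((actW TE6.cert L r).1 < chevE6.nroots / 2 ↔ ∀ k < chevE6.rank, k ∉ L → TE6.cert.coef r k = 0)) →
      (actW TE6.cert L r).1 = r' → spE6.π r = r → spE6.σ r = 1 → spE6.π r' = r' → spE6.σ r' = 1 →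
      (∀ t, φ t = t → Xr r t ∈ CT) → ∀ u, φ u = u → Xr r' u ∈ CT := by
    intro j L r r' hr hr' hj hL1 hL2 h0 h1 h2 h3 h4 hx u hu
    refine Dt.root_step TE6.extra (φ := (φ : K →+* K)) hM (Dt.w_T TE6.extra TE6.braid j) (Dt.w_mono TE6.extra TE6.braid j) hr hr' ?_ h1 ?_ h3 ?_ hx u hu
    · rw [Dt.τw_val_eq TE6.extra TE6.braid j hj hL1 hL2 r hr, h0]
    · rw [hf, h2]
      simp
    · intro t
      rw [hf, h4]
      simp
  have hfind : ∀ i : Fin 4, ∃ j, Dt.J j = {k | k ∈ e6J i} := fun i => ⟨e'.symm i, by rw [hJ]; simp⟩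
  obtain ⟨j1, hj1⟩ := hfind 0
  obtain ⟨j3, hj3⟩ := hfind 1
  obtain ⟨j5, hj5⟩ := hfind 3
  have hj1' : Dt.J j1 = {k | k ∈ [1]} := hj1
  have hj3' : Dt.J j3 = {k | k ∈ [3]} := hj3
  have hj5' : Dt.J j5 = {k | k ∈ [2, 4]} := hj5
  -- the fixed root `44`
  have h44 : ∀ v, φ v = v → Xr 44 v ∈ CT := by
    intro v hv
    obtain ⟨s, hs⟩ := e6_trace φ hφ hφ2 hq hK v hv
    have hA : Xr 37 s * Xr 42 (φ s) ∈ twistedE6 K q := by
      have h1 := e6_pair_mem φ hφ (a := e6p3) (b := e6p5) (by decide) (φ s)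
      rw [hφ2] at h1
      have c : ∀ a b : K, Xr 42 a * Xr 37 b = Xr 37 b * Xr 42 a := fun a b =>
        TE6.good.x_comm (by decide +kernel) (by decide +kernel) (by decide +kernel) (by decide +kernel) (by decide +kernel) b a
      show _ ∈ _
      have e : Xr 37 s * Xr 42 (φ s) = Xr e6p3 (φ s) * Xr e6p5 s := (c _ _).symm
      rw [e]
      exact h1
    have hB : Xr 40 1 * Xr 43 (-1) ∈ twistedE6 K q := by
      have h1 : Xr 40 1 * Xr 43 (-1) ∈ chevE6.posUnipotent K ⊓ ((tE6 φ).base TE6.extra TE6.braid).Fx := by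
        refine Subgroup.mem_inf.2 ⟨mul_mem (TE6.good.posUnipotent_mem ((TE6.extra.posIff _ (by decide +kernel)).2 (by decide +kernel)) _) (TE6.good.posUnipotent_mem ((TE6.extra.posIff _ (by decide +kernel)).2 (by decide +kernel)) _), ?_⟩
        refine ⟨mul_mem (TE6.good.mem_group (by decide +kernel) _) (TE6.good.mem_group (by decide +kernel) _), ?_⟩
        show (tE6 φ).s _ = _
        rw [(tE6 φ).s_mul (TE6.good.mem_group (by decide +kernel) _) (TE6.good.mem_group (by decide +kernel) _), tE6_s φ (by decide +kernel), tE6_s φ (by decide +kernel)]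
        have s1 : spE6.π 40 = 43 := by decide +kernel
        have s2 : spE6.σ 40 = -1 := by decide +kernel
        have s3 : spE6.π 43 = 40 := by decide +kernel
        have s4 : spE6.σ 43 = -1 := by decide +kernel
        rw [s1, s2, s3, s4]
        have c : ∀ a b : K, Xr 43 a * Xr 40 b = Xr 40 b * Xr 43 a := fun a b =>
          TE6.good.x_comm (by decide +kernel) (by decide +kernel) (by decide +kernel) (by decide +kernel) (by decide +kernel) b a
        simp only [Int.reduceNeg, Int.cast_neg, Int.cast_one, map_one, map_neg, mul_one, neg_mul, one_mul, neg_neg]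
        rw [c]
      rw [← Dt.U_inf_T TE6.extra TE6.braid] at h1
      exact (Subgroup.mem_inf.1 h1).2
    have e := e6_comm44 (K := K) s 1 (-1) (φ s)
    have e1 : φ s * 1 - s * -1 = v := by
      rw [← hs]
      ring
    rw [e1] at e
    have h2 : Xr 44 v = (Xr 40 1 * Xr 43 (-1))⁻¹ * (Xr 37 s * Xr 42 (φ s))⁻¹ * (Xr 40 1 * Xr 43 (-1))⁻¹⁻¹ * (Xr 37 s * Xr 42 (φ s))⁻¹⁻¹ := by
      rw [inv_inv, inv_inv, mul_assoc _ (Xr 40 1 * Xr 43 (-1)), mul_assoc, e]
      group
    rw [h2]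
    exact comm_mem_derT (inv_mem hB) (inv_mem hA)
  have h39 : ∀ v, φ v = v → Xr e6p4 v ∈ CT :=
    hstep j5 [2, 4] 44 e6p4 (by decide +kernel) (by decide +kernel) hj5' (by decide +kernel) (by decide +kernel) (by decide +kernel) (by decide +kernel) (by decide +kernel) (by decide +kernel) (by decide +kernel) h44
  have h32 : ∀ v, φ v = v → Xr e6m4 v ∈ CT :=
    hstep j3 [3] e6p4 e6m4 (by decide +kernel) (by decide +kernel) hj3' (by decide +kernel) (by decide +kernel) (by decide +kernel) (by decide +kernel) (by decide +kernel) (by decide +kernel) (by decide +kernel) h39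
  have h47 : ∀ v, φ v = v → Xr 47 v ∈ CT :=
    hstep j1 [1] e6p4 47 (by decide +kernel) (by decide +kernel) hj1' (by decide +kernel) (by decide +kernel) (by decide +kernel) (by decide +kernel) (by decide +kernel) (by decide +kernel) (by decide +kernel) h39
  have h46 : ∀ v, φ v = v → Xr e6p2 v ∈ CT :=
    hstep j3 [3] 47 e6p2 (by decide +kernel) (by decide +kernel) hj3' (by decide +kernel) (by decide +kernel) (by decide +kernel) (by decide +kernel) (by decide +kernel) (by decide +kernel) (by decide +kernel) h47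
  have h25 : ∀ v, φ v = v → Xr e6m2 v ∈ CT :=
    hstep j1 [1] e6p2 e6m2 (by decide +kernel) (by decide +kernel) hj1' (by decide +kernel) (by decide +kernel) (by decide +kernel) (by decide +kernel) (by decide +kernel) (by decide +kernel) (by decide +kernel) h46
  -- an element of the field which is not a square root of one
  obtain ⟨x, hx0, hx1⟩ : ∃ x : K, x ≠ 0 ∧ x ^ 2 ≠ 1 := by
    have hc : ({0, 1, -1} : Finset K).card < Fintype.card K := by
      refine lt_of_le_of_lt (Finset.card_le_three) ?_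
      rw [hK]
      nlinarith
    obtain ⟨x, hx⟩ : ∃ x, x ∉ ({0, 1, -1} : Finset K) := by
      by_contra h
      push Not at h
      have : (Finset.univ : Finset K) ⊆ {0, 1, -1} := fun x _ => h x
      have := Finset.card_le_card this
      rw [Finset.card_univ] at this
      omega
    simp only [Finset.mem_insert, Finset.mem_singleton, not_or] at hx
    refine ⟨x, hx.1, fun e => ?_⟩
    have e2 : (x - 1) * (x + 1) = 0 := by
      linear_combination e
    rcases mul_eq_zero.1 e2 with h | h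
    · exact hx.2.1 (sub_eq_zero.1 h)
    · exact hx.2.2 (eq_neg_of_add_eq_zero_left h)
  have hx1' : (x ^ 2)⁻¹ ≠ 1 := by
    intro e
    exact hx1 (inv_eq_one.1 e)
  have hφx : φ x ≠ 0 := by simpa using hx0
  have hH1 := e6H_mono φ (a := x) (b := 1) (c1 := 1) (c3 := 1) hx0 one_ne_zero one_ne_zero one_ne_zero
  have hH3 := e6H_mono φ (a := 1) (b := x) (c1 := 1) (c3 := 1) one_ne_zero hx0 one_ne_zero one_ne_zero
  have hHm1 : e6H φ x 1 1 1 ∈ twistedE6 K q := e6H_mem φ hφ (by simp) (by simp)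
  have hHm3 : e6H φ 1 x 1 1 ∈ twistedE6 K q := e6H_mem φ hφ (by simp) (by simp)
  have pp1 : ∀ t : K, Xr e6p1 t * Xr e6p6 (φ t) ∈ CT := by
    refine e6_pair_step φ (a := e6p1) (b := e6p6) (by decide) hq' ?_ hHm1 hH1 (by decide +kernel) (by decide +kernel) ?_ ?_
    · intro s t
      exact TE6.good.x_comm (by decide +kernel) (by decide +kernel) (by decide +kernel) (by decide +kernel) (by decide +kernel) t s
    · show e6G x 1 1 1 (φ 1) (φ x) e6p6 = φ (e6G x 1 1 1 (φ 1) (φ x) e6p1)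
      rw [e6G_0, e6G_5]
      simp
    · show e6G x 1 1 1 (φ 1) (φ x) e6p1 ≠ 1
      rw [e6G_0]
      simpa using hx1
  have pp3 : ∀ t : K, Xr e6p3 t * Xr e6p5 (φ t) ∈ CT := by
    refine e6_pair_step φ (a := e6p3) (b := e6p5) (by decide) hq' ?_ hHm3 hH3 (by decide +kernel) (by decide +kernel) ?_ ?_
    · intro s t
      exact TE6.good.x_comm (by decide +kernel) (by decide +kernel) (by decide +kernel) (by decide +kernel) (by decide +kernel) t s
    · show e6G 1 1 x 1 (φ x) (φ 1) e6p5 = φ (e6G 1 1 x 1 (φ x) (φ 1) e6p3)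
      rw [e6G_2, e6G_4]
      simp
    · show e6G 1 1 x 1 (φ x) (φ 1) e6p3 ≠ 1
      rw [e6G_2]
      simpa using hx1
  have pm1 : ∀ t : K, Xr e6m1 t * Xr e6m6 (φ t) ∈ CT := by
    refine e6_pair_step φ (a := e6m1) (b := e6m6) (by decide) hq' ?_ hHm1 hH1 (by decide +kernel) (by decide +kernel) ?_ ?_
    · intro s t
      exact TE6.good.x_comm (by decide +kernel) (by decide +kernel) (by decide +kernel) (by decide +kernel) (by decide +kernel) t s
    · show e6G x 1 1 1 (φ 1) (φ x) e6m6 = φ (e6G x 1 1 1 (φ 1) (φ x) e6m1)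
      have e1 : e6m1 = chevE6.neg e6p1 := by decide +kernel
      have e2 : e6m6 = chevE6.neg e6p6 := by decide +kernel
      rw [e1, e2, e6G_neg _ _ _ _ _ _ (by decide +kernel), e6G_neg _ _ _ _ _ _ (by decide +kernel), e6G_0, e6G_5]
      simp
    · show e6G x 1 1 1 (φ 1) (φ x) e6m1 ≠ 1
      have e1 : e6m1 = chevE6.neg e6p1 := by decide +kernel
      rw [e1, e6G_neg _ _ _ _ _ _ (by decide +kernel), e6G_0]
      simpa using hx1
  have pm3 : ∀ t : K, Xr e6m3 t * Xr e6m5 (φ t) ∈ CT := by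
    refine e6_pair_step φ (a := e6m3) (b := e6m5) (by decide) hq' ?_ hHm3 hH3 (by decide +kernel) (by decide +kernel) ?_ ?_
    · intro s t
      exact TE6.good.x_comm (by decide +kernel) (by decide +kernel) (by decide +kernel) (by decide +kernel) (by decide +kernel) t s
    · show e6G 1 1 x 1 (φ x) (φ 1) e6m5 = φ (e6G 1 1 x 1 (φ x) (φ 1) e6m3)
      have e1 : e6m3 = chevE6.neg e6p3 := by decide +kernel
      have e2 : e6m5 = chevE6.neg e6p5 := by decide +kernel
      rw [e1, e2, e6G_neg _ _ _ _ _ _ (by decide +kernel), e6G_neg _ _ _ _ _ _ (by decide +kernel), e6G_2, e6G_4]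
      simp
    · show e6G 1 1 x 1 (φ x) (φ 1) e6m3 ≠ 1
      have e1 : e6m3 = chevE6.neg e6p3 := by decide +kernel
      rw [e1, e6G_neg _ _ _ _ _ _ (by decide +kernel), e6G_2]
      simpa using hx1
  apply perfect_of_le
  apply TE6.good.gen_le
  rintro w (⟨t, ht, r, hr, rfl⟩ | ⟨t, rs, hrs, rfl⟩)
  · have ht' : φ t = t := by rw [hφ, ht]
    have e : TE6.good.wordG [(r, t)] = Xr r t := by simp [Good.wordG]
    rw [e]
    simp only [List.mem_cons, List.not_mem_nil, or_false] at hr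
    rcases hr with rfl | rfl | rfl | rfl
    · exact h46 t ht'
    · exact h25 t ht'
    · exact h39 t ht'
    · exact h32 t ht'
  · have e : ∀ a b : ℕ, TE6.good.wordG [(a, t), (b, t ^ q)] = Xr a t * Xr b (φ t) := by
      intro a b
      rw [hφ]
      simp [Good.wordG]
    simp only [List.mem_cons, List.not_mem_nil, or_false] at hrs
    rcases hrs with rfl | rfl | rfl | rfl
    · rw [e]
      exact pp1 t
    · rw [e]
      exact pm1 t
    · rw [e]
      exact pp3 t
    · rw [e]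
      exact pm3 t

end E6

end CfsgLib.Chev
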