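/-
²F₄(2^(2m+1)), m ≥ 1, is perfect.
-/
import Cfsg.Agent.Lib.Tw.PerfU
import Cfsg.Agent.Lib.Tw.OrdF4

set_option autoImplicit false
set_option synthInstance.maxHeartbeats 400000
set_option synthInstance.maxSize 1024

namespace CfsgLib.Chev

open Cfsg.Lie Cfsg.Lie.ChevalleyDatum CfsgLib.BN

section derT

variable {Γ : Type*} [Group Γ] {T : Subgroup Γ}

/-- The derived subgroup is stable under conjugations preserving the group. -/
lemma conj_derT {u : Γ} (h : ∀ g ∈ T, u⁻¹ * g * u ∈ T) {x : Γ} (hx : x ∈ derT T) : u⁻¹ * x * u ∈ derT T := by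
  obtain ⟨y, hy, rfl⟩ := hx
  let f : ↥T →* ↥T :=
    { toFun := fun g => ⟨u⁻¹ * g.1 * u, h g.1 g.2⟩
      map_one' := by
        apply Subtype.ext
        simp
      map_mul' := by
        intro a b
        apply Subtype.ext
        simp only [Subgroup.coe_mul]
        group }
  refine ⟨f y, ?_, rfl⟩
  have h1 : (commutator ↥T).map f ≤ commutator ↥T := by
    unfold commutator
    rw [Subgroup.map_commutator]
    exact Subgroup.commutator_mono le_top le_top
  exact h1 ⟨y, hy, rfl⟩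

end derT

section F4

variable {K : Type*} [Field K] [CharP K 2]

local notation "X" => TF4.good.xG (F := K)

/-- The central part of the normal form. -/
noncomputable def f4R (C E : K) : GL chevF4.Idx K := X f4ab C * X f4aab E

lemma f4R_mul (C E C' E' : K) : f4R C E * f4R C' E' = f4R (C + C') (E + E') := f4A_mul C E C' E'

lemma f4N_eq (B A C E : K) : f4N B A C E = X f4b B * X f4a A * f4R C E := rfl

lemma f4_R_a (C E t : K) : f4R C E * X f4a t = X f4a t * f4R C E := by
  have h1 : X f4ab C * X f4a t = X f4a t * X f4ab C := by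
    have h := TF4.good.comm_G (F := K) (r := f4a) (s := f4ab) (by decide +kernel) (by decide +kernel) (by decide +kernel) (by decide +kernel) t C
    have e : chevF4.commTerms f4a f4ab = [(30, 2, 1, 1)] := by decide +kernel
    unfold ChevalleyDatum.commWord at h
    rw [e] at h
    simp only [List.map_cons, List.map_nil, Good.wordG, List.prod_cons, List.prod_nil, mul_one] at h
    rw [h]
    have e0 : ((2 : ℤ) : K) = 0 := by
      have := CharTwo.two_eq_zero (R := K)
      simpa using this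
    rw [e0]
    simp [TF4.good.xG_zero]
  have h2 : X f4aab E * X f4a t = X f4a t * X f4aab E :=
    TF4.good.x_comm (by decide +kernel) (by decide +kernel) (by decide +kernel) (by decide +kernel) (by decide +kernel) t E
  unfold f4R
  rw [mul_assoc, h2, ← mul_assoc, h1, mul_assoc]

lemma f4_R_b (C E t : K) : f4R C E * X f4b t = X f4b t * f4R C E := by
  have h1 : X f4ab C * X f4b t = X f4b t * X f4ab C :=
    TF4.good.x_comm (by decide +kernel) (by decide +kernel) (by decide +kernel) (by decide +kernel) (by decide +kernel) t C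
  have h2 : X f4aab E * X f4b t = X f4b t * X f4aab E :=
    TF4.good.x_comm (by decide +kernel) (by decide +kernel) (by decide +kernel) (by decide +kernel) (by decide +kernel) t E
  unfold f4R
  rw [mul_assoc, h2, ← mul_assoc, h1, mul_assoc]

/-- The multiplication of normal forms. -/
lemma f4N_mul (B A C E B' A' C' E' : K) : f4N B A C E * f4N B' A' C' E' = f4N (B + B') (A + A') (C + C' + B' * A) (E + E' + B' * A ^ 2) := by
  have h1 : X f4a A * X f4b B' = X f4b B' * X f4a A * f4R (B' * A) (B' * A ^ 2) := f4_comm_ba A B'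
  rw [f4N_eq, f4N_eq, f4N_eq]
  calc X f4b B * X f4a A * f4R C E * (X f4b B' * X f4a A' * f4R C' E')
      = X f4b B * X f4a A * (f4R C E * X f4b B') * X f4a A' * f4R C' E' := by group
    _ = X f4b B * (X f4a A * X f4b B') * (f4R C E * X f4a A') * f4R C' E' := by rw [f4_R_b]; group
    _ = X f4b B * (X f4b B' * X f4a A * f4R (B' * A) (B' * A ^ 2)) * (X f4a A' * f4R C E) * f4R C' E' := by rw [h1, f4_R_a]
    _ = X f4b B * X f4b B' * X f4a A * (f4R (B' * A) (B' * A ^ 2) * X f4a A') * f4R C E * f4R C' E' := by group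
    _ = X f4b B * X f4b B' * (X f4a A * X f4a A') * (f4R (B' * A) (B' * A ^ 2) * f4R C E * f4R C' E') := by rw [f4_R_a]; group
    _ = _ := by
      rw [TF4.good.xG_add, TF4.good.xG_add, f4R_mul, f4R_mul]
      congr 2
      · ring
      · ring

lemma f4N_R (B A C E C' E' : K) : f4N B A C E * f4R C' E' = f4N B A (C + C') (E + E') := by
  rw [f4N_eq, f4N_eq, mul_assoc, f4R_mul]

/-- The torus acts on the central part. -/
lemma f4_conj_R {k : GL chevF4.Idx K} (hk : k ∈ chevF4.diagonalSubgroup K) {d : Fin chevF4.nroots → K} (hd : IsMono TF4.good k 1 d) (C E : K) :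
    k * f4R C E * k⁻¹ = f4R (d f4A * d f4B * C) ((d f4A) ^ 2 * d f4B * E) := by
  have e1 : d ⟨f4ab, by decide +kernel⟩ = d f4A * d f4B := by
    rw [f4_coef hk hd]
    have c0 : TF4.cert.coef (⟨f4ab, by decide +kernel⟩ : Fin chevF4.nroots) 0 = 0 := by decide +kernel
    have c1 : TF4.cert.coef (⟨f4ab, by decide +kernel⟩ : Fin chevF4.nroots) 1 = 1 := by decide +kernel
    have c2 : TF4.cert.coef (⟨f4ab, by decide +kernel⟩ : Fin chevF4.nroots) 2 = 1 := by decide +kernel
    have c3 : TF4.cert.coef (⟨f4ab, by decide +kernel⟩ : Fin chevF4.nroots) 3 = 0 := by decide +kernel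
    rw [c0, c1, c2, c3]
    simp
  have e2 : d ⟨f4aab, by decide +kernel⟩ = (d f4A) ^ 2 * d f4B := by
    rw [f4_coef hk hd]
    have c0 : TF4.cert.coef (⟨f4aab, by decide +kernel⟩ : Fin chevF4.nroots) 0 = 0 := by decide +kernel
    have c1 : TF4.cert.coef (⟨f4aab, by decide +kernel⟩ : Fin chevF4.nroots) 1 = 2 := by decide +kernel
    have c2 : TF4.cert.coef (⟨f4aab, by decide +kernel⟩ : Fin chevF4.nroots) 2 = 1 := by decide +kernel
    have c3 : TF4.cert.coef (⟨f4aab, by decide +kernel⟩ : Fin chevF4.nroots) 3 = 0 := by decide +kernel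
    rw [c0, c1, c2, c3]
    simp
  have h1 := hd.conj ⟨f4ab, by decide +kernel⟩ C
  have h2 := hd.conj ⟨f4aab, by decide +kernel⟩ E
  simp only [Equiv.Perm.coe_one, id_eq] at h1 h2
  rw [e1] at h1
  rw [e2] at h2
  unfold f4R
  rw [← h1, ← h2]
  group

lemma f4_conj_N {k : GL chevF4.Idx K} (hk : k ∈ chevF4.diagonalSubgroup K) {d : Fin chevF4.nroots → K} (hd : IsMono TF4.good k 1 d) (B A C E : K) :
    k * f4N B A C E * k⁻¹ = f4N (d f4B * B) (d f4A * A) (d f4A * d f4B * C) ((d f4A) ^ 2 * d f4B * E) := by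
  rw [f4N_eq, f4N_eq, ← f4_conj_R hk hd]
  have h1 : k * X f4b B * k⁻¹ = X f4b (d f4B * B) := hd.conj f4B B
  have h2 : k * X f4a A * k⁻¹ = X f4a (d f4A * A) := hd.conj f4A A
  rw [← h1, ← h2]
  group

variable (hperf : ∀ x : K, ∃ y : K, y ^ 2 = x) (φ : K ≃+* K) (hφ2 : ∀ t, (φ (φ t)) ^ 2 = t) {e : ℕ} (hφ : ∀ t, φ t = t ^ e)

include hφ in
lemma f4_class_mem (t u : K) : f4N t (φ t) u (t * (φ t) ^ 2 + (φ u) ^ 2) ∈ twistedF4 K e := by
  rw [← f4_word_eq φ hφ]
  exact TF4.good.wordG_mem_gen (Or.inr ⟨t, u, Or.inl rfl⟩)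

include hφ in
lemma f4_pair_mem (t : K) : X f4p1 (φ t) * X f4p4 t ∈ twistedF4 K e := by
  have h : TF4.good.wordG (f4PairWord e f4p1 f4p4 t) ∈ twistedF4 K e := TF4.good.wordG_mem_gen (Or.inl ⟨t, Or.inl rfl⟩)
  simpa [f4PairWord, Good.wordG, ← hφ] using h

/-- Conjugation by the unit preserves the group. -/
lemma f4_conj_T {u : GL chevF4.Idx K} (hu : ∀ r < chevF4.nroots, ∀ t : K, u * TF4.good.xG r t * u⁻¹ = TF4.good.xG (chevF4.neg r) (-t) ∧ u⁻¹ * TF4.good.xG r t * u = TF4.good.xG (chevF4.neg r) (-t))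
    {g : GL chevF4.Idx K} (hg : g ∈ twistedF4 K e) : u⁻¹ * g * u ∈ twistedF4 K e := by
  have hle2 : twistedF4 K e ≤ (twistedF4 K e).comap (MulAut.conj u⁻¹).toMonoidHom := by
    apply TF4.good.gen_le
    intro w hw
    show u⁻¹ * TF4.good.wordG w * u⁻¹⁻¹ ∈ twistedF4 K e
    rw [inv_inv]
    have h2 : ∀ w : List (ℕ × K), (∀ p ∈ w, p.1 < chevF4.nroots) → w.map (fun p => (chevF4.neg p.1, -p.2)) ∈ f4Words K e →
        u⁻¹ * TF4.good.wordG w * u ∈ twistedF4 K e := by
      intro w h3 h4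
      rw [TF4.good.conj_wordG (fun r hr t => (hu r hr t).2) w h3]
      exact TF4.good.wordG_mem_gen h4
    rcases hw with ⟨t, rfl | rfl⟩ | ⟨t, v, rfl | rfl⟩
    · exact h2 _ (f4Pair_lt (by decide +kernel) (by decide +kernel) t) (by
        rw [f4Pair_neg]
        exact Or.inl ⟨t, Or.inr rfl⟩)
    · refine h2 _ (f4Pair_lt (by decide +kernel) (by decide +kernel) t) ?_
      have : (f4PairWord e f4m1 f4m4 t).map (fun p => (chevF4.neg p.1, -p.2)) = f4PairWord e f4p1 f4p4 t := by
        rw [← f4Pair_neg, List.map_map]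
        have e1 : ∀ r < chevF4.nroots, chevF4.neg (chevF4.neg r) = r := fun r hr => TF4.good.shp.neg_neg r hr
        simp only [f4PairWord, List.map_cons, List.map_nil, Function.comp, neg_neg]
        rw [e1 _ (by decide +kernel), e1 _ (by decide +kernel)]
      rw [this]
      exact Or.inl ⟨t, Or.inl rfl⟩
    · exact h2 _ (f4Class_lt (by decide +kernel) (by decide +kernel) (by decide +kernel) (by decide +kernel) t v) (by
        rw [f4Class_neg]
        exact Or.inr ⟨t, v, Or.inr rfl⟩)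
    · refine h2 _ (f4Class_lt (by decide +kernel) (by decide +kernel) (by decide +kernel) (by decide +kernel) t v) ?_
      have : (b2ClassWord e f4ma f4mb f4mab f4maab t v).map (fun p => (chevF4.neg p.1, -p.2)) = b2ClassWord e f4a f4b f4ab f4aab t v := by
        rw [← f4Class_neg, List.map_map]
        have e1 : ∀ r < chevF4.nroots, chevF4.neg (chevF4.neg r) = r := fun r hr => TF4.good.shp.neg_neg r hr
        simp only [b2ClassWord, List.map_cons, List.map_nil, Function.comp, neg_neg]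
        rw [e1 _ (by decide +kernel), e1 _ (by decide +kernel), e1 _ (by decide +kernel), e1 _ (by decide +kernel)]
      rw [this]
      exact Or.inr ⟨t, v, Or.inl rfl⟩
  have := hle2 hg
  simpa using this

variable [Fintype K]

include hperf hφ2 hφ in
/-- `²F₄(2^(2m+1))` is perfect for `m ≥ 1`. -/
theorem f4_perfect {m : ℕ} (he : e = 2 ^ m) (hm : 1 ≤ m) (hK : Fintype.card K = 2 ^ (2 * m + 1)) : commutator ↥(twistedF4 K e) = ⊤ := by
  classical
  obtain ⟨Dt, e', hJ⟩ := f4_td hperf φ hφ2 hφ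
  set CT := derT (twistedF4 K e) with hCT
  -- a generator of the multiplicative group
  obtain ⟨y, hy⟩ := IsCyclic.exists_generator (α := Kˣ)
  have hord : orderOf y = 2 ^ (2 * m + 1) - 1 := by
    rw [orderOf_eq_card_of_forall_mem_zpowers hy, Nat.card_eq_fintype_card, Fintype.card_units, hK]
  have he2 : 2 ≤ e := by
    rw [he]
    calc 2 = 2 ^ 1 := by norm_num
      _ ≤ 2 ^ m := Nat.pow_le_pow_right (by norm_num) hm
  have hq : 2 ^ (2 * m + 1) = 2 * e ^ 2 := by
    rw [he, ← pow_mul, pow_succ, mul_comm (m) 2, mul_comm]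
  have hlarge : ∀ n : ℕ, 0 < n → n ≤ e + 1 → (y : K) ^ n ≠ 1 := by
    intro n h0 h1 h2
    have h3 : y ^ n = 1 := Units.ext (by simpa using h2)
    have h4 := Nat.le_of_dvd h0 (orderOf_dvd_of_pow_eq_one h3)
    rw [hord, hq] at h4
    have : e + 2 < 2 * e ^ 2 := by nlinarith
    omega
  obtain ⟨k, hk, d, hd, hd4, hdb⟩ := f4_surj hperf φ hφ2 Dt e' hJ y y
  obtain ⟨hkH, hkT⟩ := Subgroup.mem_inf.1 hk
  obtain ⟨hd1, hda⟩ := f4_chars_fixed hperf φ hkH (Dt.T_fix k hkT) hd
  rw [hd4] at hd1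
  rw [hdb] at hda
  have hφy : φ (φ (y : K)) ^ 2 = y := hφ2 y
  have hy1 : (y : K) ≠ 1 := by
    have h1 := hlarge 1 (by omega) (by omega)
    rwa [pow_one] at h1
  have h20 : (2 : K) = 0 := CharTwo.two_eq_zero
  have hsq : ∀ a b : K, (a + b) ^ 2 = a ^ 2 + b ^ 2 := fun a b => by
    linear_combination (a * b) * h20
  -- pairs
  have hP : ∀ t : K, X f4p1 (φ t) * X f4p4 t ∈ CT := by
    refine add_step (Y := fun t => X f4p1 (φ t) * X f4p4 t) ?_ (fun t => f4_pair_mem φ hφ t) hkT hy1 ?_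
    · intro s t
      simp only [map_add, ← TF4.good.xG_add]
      calc X f4p1 (φ s) * X f4p1 (φ t) * (X f4p4 s * X f4p4 t) = X f4p1 (φ s) * (X f4p1 (φ t) * X f4p4 s) * X f4p4 t := by group
        _ = X f4p1 (φ s) * (X f4p4 s * X f4p1 (φ t)) * X f4p4 t := by rw [f4_comm_14]
        _ = _ := by group
    · intro t
      have h1 : k * X f4p1 (φ t) * k⁻¹ = X f4p1 (d f4P1 * φ t) := hd.conj f4P1 (φ t)
      have h2 : k * X f4p4 t * k⁻¹ = X f4p4 (d f4P4 * t) := hd.conj f4P4 t
      have e3 : k * (X f4p1 (φ t) * X f4p4 t) * k⁻¹ = (k * X f4p1 (φ t) * k⁻¹) * (k * X f4p4 t * k⁻¹) := by group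
      rw [e3, h1, h2, hd1, hd4, map_mul]
  -- the central part
  set c : K := φ (y : K) * y with hc
  have hc1 : c ≠ 1 := by
    have e1 : c = (y : K) ^ (e + 1) := by
      rw [hc, hφ]
      ring
    rw [e1]
    exact hlarge _ (by omega) le_rfl
  have hconjR : ∀ u : K, k * f4R u ((φ u) ^ 2) * k⁻¹ = f4R (c * u) ((φ (c * u)) ^ 2) := by
    intro u
    rw [f4_conj_R hkH hd, hda, hdb]
    simp only [hc, map_mul, mul_pow, hφy]
    congr 1
    ring
  have hRT : ∀ u : K, f4R u ((φ u) ^ 2) ∈ twistedF4 K e := by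
    intro u
    have h := f4_class_mem φ hφ 0 u
    have e1 : f4N 0 (φ 0) u (0 * (φ 0) ^ 2 + (φ u) ^ 2) = f4R u ((φ u) ^ 2) := by
      rw [f4N_eq]
      simp [TF4.good.xG_zero]
    rwa [e1] at h
  have hR : ∀ u : K, f4R u ((φ u) ^ 2) ∈ CT := by
    refine add_step (Y := fun u => f4R u ((φ u) ^ 2)) ?_ hRT hkT hc1 hconjR
    intro s t
    rw [f4R_mul, map_add, hsq]
  -- elements with parameter `t`
  set α : K → GL chevF4.Idx K := fun t => f4N t (φ t) 0 (t * (φ t) ^ 2) with hα
  have hαT : ∀ t, α t ∈ twistedF4 K e := by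
    intro t
    have h := f4_class_mem φ hφ t 0
    simpa [hα] using h
  have hconjα : ∀ t, k * α t * k⁻¹ = α ((y : K) * t) := by
    intro t
    simp only [hα]
    rw [f4_conj_N hkH hd, hda, hdb]
    simp only [map_mul, mul_zero, mul_pow]
    congr 1
    ring
  have hinv : ∀ t, (α t)⁻¹ = f4N t (φ t) (t * φ t) 0 := by
    intro t
    apply inv_eq_of_mul_eq_one_right
    simp only [hα]
    rw [f4N_mul]
    have e1 : f4N (t + t) (φ t + φ t) (0 + t * φ t + t * φ t) (t * φ t ^ 2 + 0 + t * φ t ^ 2) = 1 := by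
      simp only [CharTwo.add_self_eq_zero, zero_add, add_zero]
      rw [f4N_eq, f4R]
      simp [TF4.good.xG_zero]
    exact e1
  have hαCT : ∀ s, α s ∈ CT := by
    intro s
    have hy2 : (y : K) + 1 ≠ 0 := by
      intro h0
      apply hy1
      have := CharTwo.add_eq_zero.1 h0
      exact this
    set t := s / ((y : K) + 1) with ht
    have hs : (y : K) * t + t = s := by
      rw [ht]
      field_simp
    have h1 : k * α t * k⁻¹ * (α t)⁻¹ ∈ CT := comm_mem_derT hkT (hαT t)
    rw [hconjα, hinv] at h1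
    simp only [hα] at h1
    rw [f4N_mul] at h1
    -- the product is `α s` times a central element
    set u₁ : K := 0 + t * φ t + t * φ ((y : K) * t) with hu₁
    have h2 : f4N ((y : K) * t + t) (φ ((y : K) * t) + φ t) u₁ ((y : K) * t * φ ((y : K) * t) ^ 2 + 0 + t * φ ((y : K) * t) ^ 2) = f4N s (φ s) 0 (s * φ s ^ 2) * f4R u₁ ((φ u₁) ^ 2) := by
      have e1 : φ u₁ ^ 2 = φ t ^ 2 * t + φ t ^ 2 * ((y : K) * t) := by
        rw [hu₁, map_add, map_add, map_zero, zero_add, map_mul, map_mul, hsq, mul_pow, mul_pow, hφ2, hφ2]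
      rw [f4N_R, ← hs, e1, zero_add, map_add]
      congr 1
      linear_combination -(((y : K) * t + t) * (φ ((y : K) * t) * φ t)) * h20 - (φ t ^ 2 * t + φ t ^ 2 * ((y : K) * t)) * h20
    rw [h2] at h1
    have h3 : α s = f4N s (φ s) 0 (s * φ s ^ 2) * f4R u₁ ((φ u₁) ^ 2) * (f4R u₁ ((φ u₁) ^ 2))⁻¹ := by
      simp [hα]
    rw [h3]
    exact mul_mem h1 (inv_mem (hR u₁))
  obtain ⟨u, hu⟩ := TF4.good.exists_neg_unit (K := K) (by decide +kernel)
  have hconjT : ∀ g ∈ twistedF4 K e, u⁻¹ * g * u ∈ twistedF4 K e := fun g hg => f4_conj_T hu hg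
  have hpos1 : ∀ t : K, TF4.good.wordG (f4PairWord e f4p1 f4p4 t) ∈ CT := by
    intro t
    have e1 : TF4.good.wordG (f4PairWord e f4p1 f4p4 t) = X f4p1 (φ t) * X f4p4 t := by
      simp [f4PairWord, Good.wordG, ← hφ]
    rw [e1]
    exact hP t
  have hpos2 : ∀ t v : K, TF4.good.wordG (b2ClassWord e f4a f4b f4ab f4aab t v) ∈ CT := by
    intro t v
    rw [f4_word_eq φ hφ]
    have e1 : f4N t (φ t) v (t * φ t ^ 2 + φ v ^ 2) = α t * f4R v (φ v ^ 2) := by
      simp only [hα]
      rw [f4N_R, zero_add]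
    rw [e1]
    exact mul_mem (hαCT t) (hR v)
  apply perfect_of_le
  apply TF4.good.gen_le
  rintro w (⟨t, rfl | rfl⟩ | ⟨t, v, rfl | rfl⟩)
  · exact hpos1 t
  · have h1 := conj_derT hconjT (hpos1 t)
    rw [TF4.good.conj_wordG (fun r hr t => (hu r hr t).2) _ (f4Pair_lt (by decide +kernel) (by decide +kernel) t), f4Pair_neg] at h1
    exact h1
  · exact hpos2 t v
  · have h1 := conj_derT hconjT (hpos2 t v)
    rw [TF4.good.conj_wordG (fun r hr t => (hu r hr t).2) _ (f4Class_lt (by decide +kernel) (by decide +kernel) (by decide +kernel) (by decide +kernel) t v), f4Class_neg] at h1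
    exact h1

end F4

end CfsgLib.Chev
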